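import Cfsg.Agent.A8GL4.Subgroups
import Cfsg.Agent.Hall.Basic

/-! Insoluble subgroups of `A₈` with non-trivial odd radical. -/

set_option autoImplicit false

namespace CfsgLib.RankFourTwo

open Equiv CfsgLib.A8GL4
open scoped Pointwise

/-- Groups of odd order dividing `20160` are solvable. -/
theorem odd_small_solvable {N : Type*} [Group N] [Finite N] (hd : Nat.card N ∣ 20160)
    (ho : (Nat.card N).Coprime 2) : Group.IsSolvable N := by
  have hd' : Nat.card N ∣ 315 := by
    have h64 : (Nat.card N).Coprime (2 ^ 6) := ho.pow_right 6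
    exact h64.dvd_of_dvd_mul_left (show Nat.card N ∣ 2 ^ 6 * 315 by norm_num; exact hd)
  have hpr : ∀ r : ℕ, r.Prime → r ∣ 315 → r = 3 ∨ r = 5 ∨ r = 7 := by
    intro r hr h
    have h1 : r ∣ 3 * 3 * (5 * 7) := by norm_num; exact h
    rcases hr.dvd_mul.mp h1 with h2 | h2 <;> rcases hr.dvd_mul.mp h2 with h3 | h3
    · exact Or.inl ((Nat.prime_dvd_prime_iff_eq hr (by norm_num)).mp h3)
    · exact Or.inl ((Nat.prime_dvd_prime_iff_eq hr (by norm_num)).mp h3)
    · exact Or.inr (Or.inl ((Nat.prime_dvd_prime_iff_eq hr (by norm_num)).mp h3))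
    · exact Or.inr (Or.inr ((Nat.prime_dvd_prime_iff_eq hr (by norm_num)).mp h3))
  by_cases h5 : 5 ∣ Nat.card N
  · haveI : Fact (Nat.Prime 5) := ⟨by norm_num⟩
    obtain ⟨P⟩ : Nonempty (Sylow 5 N) := inferInstance
    have hP5 : Nat.card (P : Subgroup N) = 5 := by
      obtain ⟨k, hk⟩ := IsPGroup.iff_card.mp P.isPGroup'
      have h1 : 5 ^ k ∣ 315 := hk ▸ (Subgroup.card_subgroup_dvd_card _).trans hd'
      have h2 : 5 ∣ Nat.card (P : Subgroup N) := P.dvd_card_of_dvd_card h5
      match k, hk, h1 with
      | 0, hk, _ => rw [hk] at h2; norm_num at h2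
      | 1, hk, _ => simpa using hk
      | k + 2, hk, h1 => exact absurd ((pow_dvd_pow 5 (show 2 ≤ k + 2 by omega)).trans h1) (by norm_num)
    haveI : IsCyclic (P : Subgroup N) := isCyclic_of_prime_card hP5
    have hP : Subgroup.normalizer ((P : Subgroup N) : Set N) ≤ Subgroup.centralizer ((P : Subgroup N) : Set N) := by
      intro g hg
      let θ := Subgroup.normalizerMonoidHom (P : Subgroup N)
      have h4 : Nat.card (MulAut (P : Subgroup N)) = 4 := by
        rw [Nat.card_congr (IsCyclic.mulAutMulEquiv (P : Subgroup N)).toEquiv, hP5, Nat.card_eq_fintype_card,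
          ZMod.card_units_eq_totient]
        rfl
      have h1 : orderOf (θ ⟨g, hg⟩) ∣ 4 := h4 ▸ orderOf_dvd_natCard _
      have h2 : orderOf (θ ⟨g, hg⟩) ∣ Nat.card N :=
        ((orderOf_map_dvd θ _).trans (orderOf_dvd_natCard _)).trans (Subgroup.card_subgroup_dvd_card _)
      have h3 : orderOf (θ ⟨g, hg⟩) = 1 :=
        Nat.eq_one_of_dvd_coprimes (ho.pow_right 2) h2 (by simpa using h1)
      have h5' : (⟨g, hg⟩ : Subgroup.normalizer ((P : Subgroup N) : Set N)) ∈ θ.ker :=
        MonoidHom.mem_ker.mpr (orderOf_eq_one_iff.mp h3)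
      rw [Subgroup.normalizerMonoidHom_ker] at h5'
      exact h5'
    have hnd := MonoidHom.not_dvd_card_ker_transferSylow P hP
    haveI : Group.IsSolvable (MonoidHom.transferSylow P hP).ker :=
      CfsgLib.CharBasics.isSolvable_two_primes 3 7 fun r hr hrd => by
        rcases hpr r hr ((hrd.trans (Subgroup.card_subgroup_dvd_card _)).trans hd') with e | e | e
        · exact Or.inl e
        · exact absurd (e ▸ hrd) hnd
        · exact Or.inr e
    haveI : Group.IsSolvable (P : Subgroup N) := Group.isSolvable_of_comm fun a b => IsMulCommutative.is_comm.comm a b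
    exact Group.isSolvable_of_ker_le_range (MonoidHom.transferSylow P hP).ker.subtype
      (MonoidHom.transferSylow P hP) (by rw [Subgroup.range_subtype])
  · exact CfsgLib.CharBasics.isSolvable_two_primes 3 7 fun r hr hrd => by
      rcases hpr r hr (hrd.trans hd') with e | e | e
      · exact Or.inl e
      · exact absurd (e ▸ hrd) h5
      · exact Or.inr e

variable {G : Type*} [Group G] [Finite G]

/-- An insoluble subgroup of `A₈` with non-trivial odd radical is `A₅` or `S₅` on top of a group of order 3. -/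
theorem radical_cases (hns : ¬ Group.IsSolvable G) (f : G →* Perm (Fin 8)) (hf : Function.Injective f)
    (hev : ∀ g, f g ∈ alternatingGroup (Fin 8)) (hO : Cfsg.pPrimeCore 2 G ≠ ⊥) :
    Nat.card (Cfsg.pCore 3 G) = 3 ∧ (Nat.card G = 180 ∨ Nat.card G = 360) ∧
      (Nonempty (G ⧸ Cfsg.pCore 3 G ≃* alternatingGroup (Fin 5)) ∨
        Nonempty (G ⧸ Cfsg.pCore 3 G ≃* Perm (Fin 5))) := by
  classical
  have hd : ∀ H : Subgroup G, Nat.card H ∣ 20160 := fun H => by
    have h := Subgroup.card_dvd_of_injective ((f.codRestrict (alternatingGroup (Fin 8)) hev).comp H.subtype)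
      (fun a b e => Subtype.ext (hf (congrArg Subtype.val e)))
    rw [nat_card_alternatingGroup, Nat.card_eq_fintype_card (α := Fin 8), Fintype.card_fin] at h
    exact h
  haveI := CfsgLib.PCore.pPrimeCore_characteristic 2 G
  haveI : Group.IsSolvable (Cfsg.pPrimeCore 2 G) :=
    odd_small_solvable (hd _) (CfsgLib.PCore.pPrimeCore_coprime 2 G)
  obtain ⟨E, hEmin, hEle⟩ := CfsgLib.Hall.exists_isMinNormal_le (Cfsg.pPrimeCore 2 G) hO
  haveI hEn := hEmin.1
  haveI : Group.IsSolvable E := Group.isSolvable_of_isSolvable_injective (f := Subgroup.inclusion hEle)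
    (Subgroup.inclusion_injective _)
  obtain ⟨r, hr, hEab, hEp, hEpow⟩ := hEmin.elementaryAbelian
  haveI := Fact.mk hr
  have hEcop : (Nat.card E).Coprime 2 :=
    Nat.Coprime.coprime_dvd_left (Subgroup.card_dvd_of_le hEle) (CfsgLib.PCore.pPrimeCore_coprime 2 G)
  obtain ⟨ne, hne⟩ := IsPGroup.iff_card.mp hEp
  have hne0 : ne ≠ 0 := fun e => hEmin.2.1 (Subgroup.card_eq_one.mp (by rw [hne, e, pow_zero]))
  have hr3 : 3 ≤ r := by
    rcases hr.two_le.eq_or_lt with e | e
    · exfalso
      rw [hne, ← e] at hEcop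
      exact Nat.prime_two.coprime_iff_not_dvd.mp hEcop.symm (dvd_pow_self 2 hne0)
    · omega
  letI act : MulAction G (Fin 8) := MulAction.compHom _ f
  have hsm : ∀ (g : G) (x : Fin 8), g • x = f g x := fun _ _ => rfl
  -- an orbit of `E` which moves
  obtain ⟨x0, e0, he0, hx0⟩ : ∃ x0 : Fin 8, ∃ e0 : G, e0 ∈ E ∧ e0 • x0 ≠ x0 := by
    by_contra hc
    push Not at hc
    refine hEmin.2.1 (Subgroup.eq_bot_iff_forall _ |>.mpr fun e he => hf ?_)
    rw [map_one]
    exact Equiv.ext fun x => hc x e he
  let A : Fin 8 → Set (Fin 8) := fun x => MulAction.orbit E x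
  have hmem : ∀ x y, y ∈ A x ↔ ∃ e ∈ E, e • x = y := fun x y =>
    ⟨fun ⟨e, he⟩ => ⟨e, e.2, he⟩, fun ⟨e, he, h⟩ => ⟨⟨e, he⟩, h⟩⟩
  have hmove : ∀ (g : G) (x : Fin 8), g • A x = A (g • x) := by
    intro g x
    ext y
    rw [Set.mem_smul_set_iff_inv_smul_mem, hmem, hmem]
    constructor
    · rintro ⟨e, he, h⟩
      refine ⟨g * e * g⁻¹, hEn.conj_mem e he g, ?_⟩
      rw [mul_smul, inv_smul_smul, mul_smul, h, smul_inv_smul]
    · rintro ⟨e, he, h⟩
      refine ⟨g⁻¹ * e * g⁻¹⁻¹, hEn.conj_mem e he g⁻¹, ?_⟩
      rw [inv_inv, mul_smul, mul_smul, h]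
  have hsize : ∀ x, (A x).ncard = 1 ∨ (A x).ncard = r := by
    intro x
    obtain ⟨j, hj⟩ := hEp.card_orbit x
    rw [Nat.card_coe_set_eq] at hj
    have hle : (A x).ncard ≤ 8 := (Set.ncard_le_card _).trans (le_of_eq (Nat.card_fin 8))
    change (A x).ncard = r ^ j at hj
    rcases j with _ | _ | j
    · exact Or.inl (by simpa using hj)
    · exact Or.inr (by simpa using hj)
    · exfalso
      have h9 : 3 ^ 2 ≤ r ^ (j + 1 + 1) := (Nat.pow_le_pow_left hr3 2).trans (Nat.pow_le_pow_right hr.pos (by omega))
      omega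
  set M := A x0 with hM
  have hx0M : x0 ∈ M := MulAction.mem_orbit_self x0
  have hMr : M.ncard = r := (hsize x0).resolve_left fun h => by
    obtain ⟨a, ha⟩ := Set.ncard_eq_one.mp h
    have h1 : e0 • x0 ∈ M := (hmem _ _).mpr ⟨e0, he0, rfl⟩
    have h2 : x0 ∈ M := hx0M
    change _ ∈ A x0 at h1
    change _ ∈ A x0 at h2
    rw [ha, Set.mem_singleton_iff] at h1 h2
    exact hx0 (h1.trans h2.symm)
  have hFcard : M.ncard + Mᶜ.ncard = 8 := by
    rw [Set.ncard_add_ncard_compl, Nat.card_eq_fintype_card, Fintype.card_fin]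
  by_cases hstab : ∀ g : G, g • M = M
  swap
  · -- two orbits of length three
    exfalso
    push Not at hstab
    obtain ⟨g1, hg1⟩ := hstab
    set B := g1 • M with hB
    have hBr : B.ncard = r := by rw [hB, Set.ncard_smul_set, hMr]
    have horb : ∀ x y, y ∈ A x → A y = A x := fun x y h => MulAction.orbit_eq_iff.mpr h
    have hdisj : ∀ x y, A x ≠ A y → Disjoint (A x) (A y) := by
      intro x y h
      rw [Set.disjoint_left]
      intro z hz hz'
      exact h ((horb x z hz).symm.trans (horb y z hz'))
    have hBA : B = A (g1 • x0) := hmove g1 x0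
    have hMB : Disjoint M B := by rw [hBA]; exact hdisj _ _ (fun e => hg1 (by rw [hB, hmove]; exact e.symm))
    have hU : (M ∪ B).ncard = r + r := by rw [Set.ncard_union_eq hMB, hMr, hBr]
    have hr8 : r + r ≤ 8 := hU ▸ (Set.ncard_le_card _).trans (le_of_eq (Nat.card_fin 8))
    obtain rfl : r = 3 := by
      rcases (show r = 3 ∨ r = 4 by omega) with e | e
      · exact e
      · exact absurd (e ▸ hr) (by norm_num)
    have hrest : ∀ g : G, g • M = M ∨ g • M = B := by
      intro g
      by_contra hc
      push Not at hc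
      have h1 : Disjoint M (g • M) := by rw [hmove]; exact hdisj _ _ (fun e => hc.1 (by rw [hmove]; exact e.symm))
      have h2 : Disjoint B (g • M) := by
        rw [hmove, hBA]; exact hdisj _ _ (fun e => hc.2 (by rw [hmove, hBA]; exact e.symm))
      have h3 : (M ∪ B ∪ g • M).ncard = 9 := by
        rw [Set.ncard_union_eq (Set.disjoint_union_left.mpr ⟨h1, h2⟩), hU, Set.ncard_smul_set, hMr]
      have := (Set.ncard_le_card (M ∪ B ∪ g • M)).trans (le_of_eq (Nat.card_fin 8))
      omega
    let t : G →* Perm ({M, B} : Set (Set (Fin 8))) := MonoidHom.mk'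
      (fun g => (MulAction.toPerm g).subtypePerm fun S => by
        have key : ∀ (h : G) (S : Set (Fin 8)), S ∈ ({M, B} : Set (Set (Fin 8))) → h • S ∈ ({M, B} : Set (Set (Fin 8))) := by
          intro h S hS
          rcases hS with rfl | rfl
          · exact hrest h
          · rw [hB, ← mul_smul]; exact hrest _
        exact ⟨fun hS => by simpa using key g⁻¹ _ hS, key g S⟩)
      (fun a b => Equiv.ext fun S => Subtype.ext (mul_smul a b (S : Set (Fin 8))))
    haveI : Group.IsSolvable t.range := Group.isSolvable_of_comm fun a b => by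
      have h2 : Nat.card t.range ∣ 2 := by
        refine (Subgroup.card_subgroup_dvd_card _).trans ?_
        rw [Nat.card_perm, Nat.card_coe_set_eq, Set.ncard_pair (Ne.symm hg1)]
        rfl
      haveI : IsCyclic t.range := by
        rcases (Nat.dvd_prime Nat.prime_two).mp h2 with e | e
        · haveI : Subsingleton t.range := (Nat.card_eq_one_iff_unique.mp e).1
          exact isCyclic_of_subsingleton
        · exact isCyclic_of_prime_card e
      exact IsMulCommutative.is_comm.comm a b
    haveI : Group.IsSolvable t.ker := isSolvable_of_small_cover (f.comp t.ker.subtype)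
      (hf.comp t.ker.subtype_injective)
      (fun x => if x ∈ M then M else if x ∈ B then B else (M ∪ B)ᶜ)
      (fun x => by
        by_cases h1 : x ∈ M
        · simp [h1]
        · by_cases h2 : x ∈ B <;> simp [h1, h2])
      (fun x g y hy => by
        have hgM : (g : G) • M = M :=
          congrArg Subtype.val (DFunLike.congr_fun (MonoidHom.mem_ker.mp g.2) (⟨M, Or.inl rfl⟩ : ({M, B} : Set (Set (Fin 8)))))
        have hgB : (g : G) • B = B :=
          congrArg Subtype.val (DFunLike.congr_fun (MonoidHom.mem_ker.mp g.2) (⟨B, Or.inr rfl⟩ : ({M, B} : Set (Set (Fin 8)))))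
        have hfix : ∀ S : Set (Fin 8), (g : G) • S = S → (y ∈ S ↔ f g y ∈ S) := fun S hS => by
          conv_rhs => rw [← hS]
          exact (Set.smul_mem_smul_set_iff (a := (g : G))).symm
        show f g y ∈ _
        by_cases h1 : x ∈ M
        · simp only [h1, if_true] at hy ⊢; exact (hfix M hgM).mp hy
        · by_cases h2 : x ∈ B
          · simp only [h1, h2, if_false, if_true] at hy ⊢; exact (hfix B hgB).mp hy
          · simp only [h1, h2, if_false] at hy ⊢
            rw [Set.mem_compl_iff, Set.mem_union] at hy ⊢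
            rwa [← hfix M hgM, ← hfix B hgB])
      (fun x => by
        rw [Nat.card_coe_set_eq]
        by_cases h1 : x ∈ M
        · simp only [h1, if_true]; omega
        · by_cases h2 : x ∈ B
          · simp only [h1, h2, if_false, if_true]; omega
          · simp only [h1, h2, if_false]
            have := Set.ncard_add_ncard_compl (M ∪ B)
            rw [hU, Nat.card_eq_fintype_card, Fintype.card_fin] at this
            omega)
    exact hns (Group.isSolvable_of_ker_le_range t.ker.subtype t.rangeRestrict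
      (by rw [MonoidHom.ker_rangeRestrict, Subgroup.range_subtype]))
  have hgM : ∀ (g : G) (x : Fin 8), x ∈ M ↔ g • x ∈ M := fun g x => by
    conv_rhs => rw [← hstab g]
    exact Set.smul_mem_smul_set_iff.symm
  let ρ : G →* Perm (Mᶜ : Set (Fin 8)) := MonoidHom.mk'
    (fun g => (f g).subtypePerm fun x => not_congr (hgM g x).symm)
    (fun a b => Equiv.ext fun x => Subtype.ext (show f (a * b) x = f a (f b x) by rw [map_mul]; rfl))
  by_cases h5r : 5 ≤ r
  · exfalso
    have hEfix : ∀ e ∈ E, ∀ y ∈ Mᶜ, e • y = y := by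
      intro e he y hy
      rcases hsize y with h | h
      · obtain ⟨a, ha⟩ := Set.ncard_eq_one.mp h
        have h1 : e • y ∈ A y := (hmem _ _).mpr ⟨e, he, rfl⟩
        have h2 : y ∈ A y := MulAction.mem_orbit_self y
        rw [ha, Set.mem_singleton_iff] at h1 h2
        exact h1.trans h2.symm
      · exfalso
        have hdj : Disjoint M (A y) := by
          rw [Set.disjoint_left]
          intro z hz hz'
          have e1 : A z = M := MulAction.orbit_eq_iff.mpr hz
          have e2 : A z = A y := MulAction.orbit_eq_iff.mpr hz'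
          exact hy (show y ∈ M by rw [← e1, e2]; exact MulAction.mem_orbit_self y)
        have h2 : (M ∪ A y).ncard = r + r := by rw [Set.ncard_union_eq hdj, hMr, h]
        have := (Set.ncard_le_card (M ∪ A y)).trans (le_of_eq (Nat.card_fin 8))
        omega
    have hEcard : Nat.card E = r := by
      refine le_antisymm ?_ ?_
      · rw [← hMr, ← Nat.card_coe_set_eq]
        refine Nat.card_le_card_of_injective (fun e : E => (⟨(e : G) • x0, (hmem _ _).mpr ⟨e, e.2, rfl⟩⟩ : M))
          fun a b hab => Subtype.ext (hf (Equiv.ext fun z => ?_))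
        have hab' : (a : G) • x0 = (b : G) • x0 := congrArg Subtype.val hab
        show (a : G) • z = (b : G) • z
        by_cases hz : z ∈ M
        · obtain ⟨c, hc, rfl⟩ := (hmem _ _).mp hz
          have hca : (a : G) * c = c * a := congrArg Subtype.val (hEab.is_comm.comm a ⟨c, hc⟩)
          have hcb : (b : G) * c = c * b := congrArg Subtype.val (hEab.is_comm.comm b ⟨c, hc⟩)
          rw [← mul_smul, ← mul_smul, hca, hcb, mul_smul, mul_smul, hab']
        · rw [hEfix _ a.2 z hz, hEfix _ b.2 z hz]
      · rw [hne]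
        exact Nat.le_self_pow hne0 r
    haveI : IsCyclic E := isCyclic_of_prime_card hEcard
    haveI : Group.IsSolvable (MulAut E) := Group.isSolvable_of_comm fun a b => by
      apply (IsCyclic.mulAutMulEquiv E).injective
      rw [map_mul, map_mul, mul_comm]
    let θ : G →* MulAut E := MulAut.conjNormal
    have hcomm : ∀ c ∈ θ.ker, ∀ e ∈ E, c * e = e * c := fun c hc e he => by
      have h := congrArg Subtype.val (DFunLike.congr_fun (MonoidHom.mem_ker.mp hc) ⟨e, he⟩)
      simpa [θ, mul_inv_eq_iff_eq_mul] using h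
    haveI : Group.IsSolvable θ.ker := by
      let π := ρ.comp θ.ker.subtype
      haveI : Group.IsSolvable π.range := isSolvable_of_small_cover π.range.subtype π.range.subtype_injective
        (fun _ => Set.univ) (fun _ => Set.mem_univ _) (fun _ _ _ _ => Set.mem_univ _)
        (fun _ => by rw [Nat.card_coe_set_eq, Set.ncard_univ, Nat.card_coe_set_eq]; omega)
      haveI : Group.IsSolvable π.ker := Group.isSolvable_of_comm fun a b => by
        apply Subtype.ext
        apply Subtype.ext
        apply hf
        apply Equiv.ext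
        intro z
        show ((a : G) * (b : G)) • z = ((b : G) * (a : G)) • z
        have fixF : ∀ c : π.ker, ∀ y, y ∉ M → (c : G) • y = y := fun c y hy =>
          congrArg Subtype.val (DFunLike.congr_fun (MonoidHom.mem_ker.mp c.2) (⟨y, hy⟩ : (Mᶜ : Set (Fin 8))))
        by_cases hz : z ∈ M
        · have key : ∀ c : π.ker, ∃ e ∈ E, ∀ y ∈ M, (c : G) • y = e • y := by
            intro c
            obtain ⟨e, he, hce⟩ := (hmem _ _).mp ((hgM (c : G) x0).mp hx0M)
            refine ⟨e, he, fun y hy => ?_⟩
            obtain ⟨e', he', rfl⟩ := (hmem _ _).mp hy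
            rw [← mul_smul, hcomm _ (c : θ.ker).2 e' he', mul_smul, ← hce, ← mul_smul, ← mul_smul,
              show e' * e = e * e' from congrArg Subtype.val (hEab.is_comm.comm ⟨e', he'⟩ ⟨e, he⟩)]
          obtain ⟨ea, hea, ha⟩ := key a
          obtain ⟨eb, heb, hb⟩ := key b
          rw [mul_smul, mul_smul, hb z hz, ha z hz, ← mul_smul, ← mul_smul,
            hcomm _ (a : θ.ker).2 eb heb, hcomm _ (b : θ.ker).2 ea hea, mul_smul, mul_smul, ha z hz, hb z hz,
            ← mul_smul, ← mul_smul, show eb * ea = ea * eb from congrArg Subtype.val (hEab.is_comm.comm ⟨eb, heb⟩ ⟨ea, hea⟩)]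
        · rw [mul_smul, mul_smul, fixF a z hz, fixF b z hz, fixF a z hz]
      exact Group.isSolvable_of_ker_le_range π.ker.subtype π.rangeRestrict
        (by rw [MonoidHom.ker_rangeRestrict, Subgroup.range_subtype])
    exact hns (Group.isSolvable_of_ker_le_range θ.ker.subtype θ (by rw [Subgroup.range_subtype]))
  obtain rfl : r = 3 := by
    have : r < 5 := by omega
    interval_cases r
    · rfl
    · norm_num at hr
  -- one orbit of length three, or a solvable situation
  have hker : Nat.card ρ.ker ≤ 3 := by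
    let σ : ρ.ker →* Perm M := MonoidHom.mk' (fun g => (f g).subtypePerm fun x => (hgM g x).symm)
      (fun a b => Equiv.ext fun x => Subtype.ext (show f (a * b) x = f a (f b x) by rw [map_mul]; rfl))
    have hsup : ∀ (g : ρ.ker) (x : Fin 8), f g x ≠ x → x ∈ M := fun g x hx => by
      by_contra hxM
      exact hx (congrArg Subtype.val (DFunLike.congr_fun (MonoidHom.mem_ker.mp g.2) (⟨x, hxM⟩ : (Mᶜ : Set (Fin 8)))))
    have hσ : ∀ g, σ g ∈ alternatingGroup M := fun g => by
      rw [Perm.mem_alternatingGroup]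
      show Perm.sign ((f g).subtypePerm fun x => (hgM (g : G) x).symm) = 1
      exact (Perm.sign_subtypePerm (f g) (fun x => (hgM (g : G) x).symm) (hsup g)).trans
        (Perm.mem_alternatingGroup.mp (hev g))
    have hinj : Function.Injective (σ.codRestrict _ hσ) := fun a b h => Subtype.ext (hf (Equiv.ext fun x => by
      by_cases hx : x ∈ M
      · exact congrArg Subtype.val (DFunLike.congr_fun (congrArg Subtype.val h) ⟨x, hx⟩)
      · have e : ∀ g : ρ.ker, f g x = x := fun g => not_not.mp fun hne => hx (hsup g x hne)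
        rw [e, e]))
    refine (Nat.card_le_card_of_injective _ hinj).trans (le_of_eq ?_)
    haveI : Nontrivial M := Fintype.one_lt_card_iff_nontrivial.mp (by
      rw [← Nat.card_eq_fintype_card, Nat.card_coe_set_eq, hMr]; norm_num)
    rw [nat_card_alternatingGroup, Nat.card_coe_set_eq, hMr]
    rfl
  haveI : Group.IsSolvable ρ.ker := by
    refine CfsgLib.CharBasics.isSolvable_two_primes 2 3 fun q hq hd' => ?_
    have h1 := (Nat.le_of_dvd Nat.card_pos hd').trans hker
    have := hq.two_le
    omega
  have hF5 : Fintype.card (Mᶜ : Set (Fin 8)) = 5 := by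
    rw [← Nat.card_eq_fintype_card, Nat.card_coe_set_eq]; omega
  have hns2 : ¬ Group.IsSolvable ρ.range := fun h => hns (Group.isSolvable_of_ker_le_range ρ.ker.subtype
    ρ.rangeRestrict (by rw [MonoidHom.ker_rangeRestrict, Subgroup.range_subtype]))
  have hiso := five_cases hF5 hns2 ρ.range.subtype ρ.range.subtype_injective
  have hrange : Nat.card ρ.range = 60 ∨ Nat.card ρ.range = 120 := by
    rcases hiso with e | e
    · left; rw [Nat.card_congr e.some.toEquiv, nat_card_alternatingGroup, Nat.card_eq_fintype_card, Fintype.card_fin]; rfl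
    · right; rw [Nat.card_congr e.some.toEquiv, Nat.card_perm, Nat.card_eq_fintype_card, Fintype.card_fin]; rfl
  -- the image of a normal 3-group in the top is trivial
  haveI h3n : (Cfsg.pCore 3 G).Normal := by
    haveI := CfsgLib.PCore.pCore_characteristic 3 G
    infer_instance
  have hcore : Cfsg.pCore 3 G ≤ ρ.ker := by
    set I := (Cfsg.pCore 3 G).map ρ.rangeRestrict with hI
    haveI : I.Normal := h3n.map _ ρ.rangeRestrict_surjective
    have hIp : IsPGroup 3 I := (CfsgLib.PCore.isPGroup_pCore 3 G).map _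
    suffices hbot : I = ⊥ by
      intro g hg
      have : ρ.rangeRestrict g ∈ I := Subgroup.mem_map_of_mem _ hg
      rw [hbot, Subgroup.mem_bot] at this
      exact MonoidHom.mem_ker.mpr (congrArg Subtype.val this)
    obtain ⟨k, hk⟩ := IsPGroup.iff_card.mp hIp
    by_contra hne'
    have hk0 : k ≠ 0 := fun e => hne' (Subgroup.card_eq_one.mp (by rw [hk, e, pow_zero]))
    haveI : Fact (Nat.Prime 3) := ⟨Nat.prime_three⟩
    haveI : Group.IsSolvable I := by
      haveI := hIp.isNilpotent
      infer_instance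
    refine hns2 ?_
    haveI : Group.IsSolvable (ρ.range ⧸ I) := CfsgLib.CharBasics.isSolvable_two_primes 2 5 fun q hq hd' => by
      have hm := I.card_mul_index
      rw [Subgroup.index_eq_card, hk] at hm
      have hdd : 3 * q ∣ 120 := by
        refine (mul_dvd_mul (dvd_pow_self 3 hk0) hd').trans ?_
        rw [hm]
        rcases hrange with e | e <;> rw [e] <;> norm_num
      have hq40 : q ∣ 2 ^ 3 * 5 := Nat.dvd_of_mul_dvd_mul_left (by norm_num) (show 3 * q ∣ 3 * (2 ^ 3 * 5) by norm_num; exact hdd)
      rcases hq.dvd_mul.mp hq40 with e | e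
      · exact Or.inl ((Nat.prime_dvd_prime_iff_eq hq Nat.prime_two).mp (hq.dvd_of_dvd_pow e))
      · exact Or.inr ((Nat.prime_dvd_prime_iff_eq hq (by norm_num)).mp e)
    exact Group.isSolvable_of_ker_le_range I.subtype (QuotientGroup.mk' I) (by simp)
  have hE3 : E ≤ Cfsg.pCore 3 G := CfsgLib.PCore.le_pCore hEn hEp
  have hcard3 : Nat.card (Cfsg.pCore 3 G) = 3 := by
    refine le_antisymm ((Subgroup.card_le_of_le hcore).trans hker) ?_
    refine le_trans ?_ (Subgroup.card_le_of_le hE3)
    rw [hne]
    exact Nat.le_self_pow hne0 3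
  have heq : Cfsg.pCore 3 G = ρ.ker := Subgroup.eq_of_le_of_card_ge hcore (hker.trans hcard3.ge)
  let top : G ⧸ Cfsg.pCore 3 G ≃* ρ.range :=
    (QuotientGroup.quotientMulEquivOfEq heq).trans (QuotientGroup.quotientKerEquivRange ρ)
  refine ⟨hcard3, ?_, hiso.imp (fun ⟨e⟩ => ⟨top.trans e⟩) fun ⟨e⟩ => ⟨top.trans e⟩⟩
  have h := (Cfsg.pCore 3 G).card_mul_index
  rw [hcard3, Subgroup.index_eq_card, Nat.card_congr top.toEquiv] at h
  omega

end CfsgLib.RankFourTwo
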