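import Cfsg.Agent.RankFourTwo.Section
import Cfsg.Agent.RankFourTwo.Radical
import Cfsg.Agent.S3103

/-! The linear image of a 2-constrained group, and its isometry subgroups. -/

set_option autoImplicit false

namespace CfsgLib.RankFourTwo

open Matrix CfsgLib.A8GL4

theorem zmod2_det_one {M : M4} (hM : M.det ≠ 0) : M.det = 1 :=
  ((show ∀ c : ZMod 2, c = 0 ∨ c = 1 by decide) M.det).resolve_left hM

/-- A 2-constrained group with a large quotient acts on four dimensions through the Frattini quotient. -/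
theorem exists_lin {X : Type*} [Group X] [Finite X] (hc : Cfsg.IsPConstrained 2 X) (hO : Cfsg.oddCore X = ⊥)
    (h4 : Cfsg.SectionalPRankLE 2 4 ↥(Cfsg.pCore 2 X)) (hbig : 512 < Nat.card (X ⧸ Cfsg.pCore 2 X)) :
    ∃ (A : X →* S4) (π : X → V4), A.ker = Cfsg.pCore 2 X ∧ Lin A π := by
  classical
  haveI : Fact (Nat.Prime 2) := ⟨Nat.prime_two⟩
  have hC := (CfsgLib.PCore.isPConstrained_iff_of_core_eq_bot hO).mp hc
  set R := Cfsg.pCore 2 X with hR
  haveI hRn : R.Normal := Subgroup.sSup_normal _ fun _ h => h.1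
  have hRp : IsPGroup 2 R := CfsgLib.PCore.isPGroup_pCore 2 X
  let conjR : X →* MulAut R := MulAut.conjNormal
  let res : MulAut R →* MulAut (R ⧸ frattini R) :=
    MonoidHom.mk' (fun φ => QuotientGroup.congr (frattini R) (frattini R) φ
        (Cfsg.Agent.S4218.map_frattini φ)) (fun φ ψ => by
      apply MulEquiv.ext
      intro q
      obtain ⟨r, rfl⟩ := QuotientGroup.mk'_surjective (frattini R) q
      rfl)
  let act := res.comp conjR
  have hpow := CfsgLib.PLocalBasics.frattini_quotient_pow (p := 2) hRp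
  have hcomm : ∀ a b : R ⧸ frattini R, a * b = b * a := fun a b => by
    have h : ∀ v : R ⧸ frattini R, v⁻¹ = v := fun v => inv_eq_of_mul_eq_one_right (by
      rw [← pow_two]; exact hpow v)
    rw [← h (a * b), _root_.mul_inv_rev, h, h]
  have hker : act.ker = R := by
    ext x
    constructor
    · intro hx
      refine Cfsg.Agent.S4218.frattini_kernel_le hRp hC (fun D hD hDp => CfsgLib.PCore.le_pCore hD hDp) ?_
      intro r hr
      have h1 := DFunLike.congr_fun (MonoidHom.mem_ker.mp hx) (QuotientGroup.mk' (frattini R) ⟨r, hr⟩)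
      have h2 : (QuotientGroup.mk' (frattini R)) (MulAut.conjNormal x ⟨r, hr⟩) =
          QuotientGroup.mk' (frattini R) ⟨r, hr⟩ := h1
      rw [← mul_inv_eq_one, ← map_inv, ← map_mul] at h2
      refine ⟨_, (QuotientGroup.eq_one_iff _).mp h2, ?_⟩
      simp
    · intro hx
      rw [MonoidHom.mem_ker]
      apply MulEquiv.ext
      intro q
      obtain ⟨r, rfl⟩ := QuotientGroup.mk'_surjective (frattini R) q
      show QuotientGroup.mk' (frattini R) (MulAut.conjNormal x r) = QuotientGroup.mk' (frattini R) r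
      have e : MulAut.conjNormal x r = (⟨x, hx⟩ : R) * r * (⟨x, hx⟩ : R)⁻¹ := Subtype.ext (by simp)
      rw [e, map_mul, map_mul, map_inv, hcomm _ (QuotientGroup.mk' (frattini R) r), mul_inv_cancel_right]
  letI : CommGroup (R ⧸ frattini R) :=
    { (inferInstance : Group (R ⧸ frattini R)) with mul_comm := hcomm }
  letI : Module (ZMod 2) (Additive (R ⧸ frattini R)) := AddCommGroup.zmodModule fun v => by
    show Additive.ofMul (Additive.toMul v ^ 2) = 0
    rw [hpow]; rfl
  haveI : Module.Finite (ZMod 2) (Additive (R ⧸ frattini R)) := Module.Finite.of_finite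
  have hVcard := Module.natCard_eq_pow_finrank (K := ZMod 2) (V := Additive (R ⧸ frattini R))
  rw [Nat.card_zmod, show Nat.card (Additive (R ⧸ frattini R)) = Nat.card (R ⧸ frattini R) from rfl] at hVcard
  have hd : Module.finrank (ZMod 2) (Additive (R ⧸ frattini R)) ≤ 4 := by
    let t : (⊤ : Subgroup R) →* R ⧸ frattini R := (QuotientGroup.mk' (frattini R)).comp (⊤ : Subgroup R).subtype
    have ht : Function.Surjective t := fun q => by
      obtain ⟨r, rfl⟩ := QuotientGroup.mk'_surjective (frattini R) q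
      exact ⟨⟨r, Subgroup.mem_top r⟩, rfl⟩
    let eq := QuotientGroup.quotientKerEquivOfSurjective t ht
    have h := h4 ⊤ t.ker ⊤ ⟨⟨fun a b => Subtype.ext (eq.injective (by
        rw [Subgroup.coe_mul, Subgroup.coe_mul, map_mul, map_mul, hcomm]))⟩⟩
      (fun a _ => eq.injective (by rw [map_pow, map_one, hpow]))
    rw [Subgroup.card_top, Nat.card_congr eq.toEquiv, hVcard] at h
    exact (Nat.pow_le_pow_iff_right (by norm_num)).mp h
  let lin : MulAut (R ⧸ frattini R) → (Additive (R ⧸ frattini R) →ₗ[ZMod 2] Additive (R ⧸ frattini R)) := fun φ =>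
    φ.toMonoidHom.toAdditive.toZModLinearMap 2
  have hlin : Function.Injective lin := fun φ ψ e =>
    MulEquiv.ext fun v => LinearMap.congr_fun e (Additive.ofMul v)
  have hd4 : Module.finrank (ZMod 2) (Additive (R ⧸ frattini R)) = 4 := by
    by_contra hne
    let b := Module.finBasis (ZMod 2) (Additive (R ⧸ frattini R))
    have hinj : Function.Injective (fun φ : MulAut (R ⧸ frattini R) => fun i => lin φ (b i)) := fun φ ψ e =>
      hlin (b.ext fun i => congrFun e i)
    have h1 := Nat.card_le_card_of_injective _ hinj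
    rw [Nat.card_fun, Nat.card_fin, show Nat.card (Additive (R ⧸ frattini R)) = Nat.card (R ⧸ frattini R) from rfl,
      hVcard] at h1
    have h2 : Nat.card (X ⧸ R) ≤ Nat.card (MulAut (R ⧸ frattini R)) := by
      rw [← Nat.card_congr (QuotientGroup.quotientMulEquivOfEq hker).toEquiv]
      exact Nat.card_le_card_of_injective _ (QuotientGroup.kerLift_injective act)
    rw [← pow_mul] at h1
    have h3 := h1.trans (Nat.pow_le_pow_right (show 0 < 2 by norm_num)
      (Nat.mul_le_mul (show Module.finrank (ZMod 2) (Additive (R ⧸ frattini R)) ≤ 3 by omega)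
        (show Module.finrank (ZMod 2) (Additive (R ⧸ frattini R)) ≤ 3 by omega)))
    norm_num at h3
    omega
  obtain ⟨e⟩ : Nonempty (Additive (R ⧸ frattini R) ≃ₗ[ZMod 2] V4) :=
    ⟨LinearEquiv.ofFinrankEq _ _ (by rw [hd4, Module.finrank_fintype_fun_eq_card, Fintype.card_fin])⟩
  let M : MulAut (R ⧸ frattini R) → M4 := fun φ =>
    LinearMap.toMatrix' (e.toLinearMap.comp ((lin φ).comp e.symm.toLinearMap))
  have hMv : ∀ φ v, M φ *ᵥ v = e (lin φ (e.symm v)) := fun φ v => by
    rw [← Matrix.toLin'_apply, Matrix.toLin'_toMatrix']; rfl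
  have hM1 : M 1 = 1 := Matrix.ext_iff_mulVec.mpr fun v => by
    rw [hMv, Matrix.one_mulVec]
    exact e.apply_symm_apply v
  have hMmul : ∀ φ ψ, M (φ * ψ) = M φ * M ψ := fun φ ψ => Matrix.ext_iff_mulVec.mpr fun v => by
    rw [← Matrix.mulVec_mulVec, hMv, hMv, hMv, e.symm_apply_apply]; rfl
  have hdet : ∀ φ, (M φ).det = 1 := fun φ => zmod2_det_one fun h0 => by
    have := congrArg Matrix.det (hMmul φ φ⁻¹)
    rw [mul_inv_cancel, hM1, det_one, det_mul, h0, zero_mul] at this
    exact one_ne_zero this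
  obtain ⟨A, hA⟩ : ∃ A : X →* S4, ∀ x, (A x : M4) = M (act x) :=
    ⟨MonoidHom.mk' (fun x => ⟨M (act x), hdet _⟩) (fun x y => Subtype.ext (by
      show M (act (x * y)) = M (act x) * M (act y)
      rw [map_mul, hMmul])), fun _ => rfl⟩
  let π : X → V4 := fun r => if hr : r ∈ R then e (Additive.ofMul (QuotientGroup.mk' (frattini R) ⟨r, hr⟩)) else 0
  have hπ : ∀ r (hr : r ∈ R), π r = e (Additive.ofMul (QuotientGroup.mk' (frattini R) ⟨r, hr⟩)) := fun r hr => dif_pos hr
  have hAker : A.ker = R := by
    rw [← hker]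
    ext x
    rw [MonoidHom.mem_ker, MonoidHom.mem_ker]
    constructor
    · intro h
      refine hlin (LinearMap.ext fun v => e.injective ?_)
      have h1 := hMv (act x) (e v)
      rw [← hA, h, Matrix.SpecialLinearGroup.coe_one, Matrix.one_mulVec, e.symm_apply_apply] at h1
      exact h1.symm
    · intro h
      apply Subtype.ext
      rw [hA, h, hM1]; rfl
  refine ⟨A, π, hAker, ⟨fun r hr s hs => ?_, fun v => ?_, fun x r hr => ?_⟩⟩
  · rw [hAker] at hr hs
    rw [hπ r hr, hπ s hs, hπ _ (R.mul_mem hr hs), ← map_add]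
    exact congrArg e (congrArg Additive.ofMul (map_mul (QuotientGroup.mk' (frattini R)) ⟨r, hr⟩ ⟨s, hs⟩))
  · obtain ⟨r, hr⟩ := QuotientGroup.mk'_surjective (frattini R) (Additive.toMul (e.symm v))
    refine ⟨r, hAker.symm ▸ r.2, ?_⟩
    rw [hπ _ r.2, show (⟨(r : X), r.2⟩ : R) = r from rfl, hr, ofMul_toMul, e.apply_symm_apply]
  · rw [hAker] at hr
    rw [hπ r hr, hπ _ (hRn.conj_mem r hr x), hA, hMv, e.symm_apply_apply]
    refine congrArg e (congrArg Additive.ofMul ?_)
    show _ = QuotientGroup.mk' (frattini R) (MulAut.conjNormal x ⟨r, hr⟩)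
    exact congrArg _ (Subtype.ext (by simp))

theorem φ_injective : Function.Injective φ := by
  haveI : Fact (Nat.Prime 2) := ⟨Nat.prime_two⟩
  haveI hs : IsSimpleGroup (SpecialLinearGroup (Fin 4) (ZMod 2)) := by
    haveI := CfsgLib.SLn.isSimpleGroup_PSL (ι := Fin 4) (F := ZMod 2) (Or.inl (by simp))
    exact (((QuotientGroup.quotientMulEquivOfEq (center_eq_bot (ZMod 2) (ZMod.card 2))).trans
      QuotientGroup.quotientBot).symm).isSimpleGroup
  refine (MonoidHom.ker_eq_bot_iff φ).mp ((φ.normal_ker.eq_bot_or_eq_top).resolve_right fun htop => ?_)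
  have h01 : (0 : Fin 4) ≠ 1 := by decide
  have h1 : φ (SpecialLinearGroup.transvection h01 (1 : ZMod 2)) = Function.Involutive.toPerm _ (tab_involutive 0 1) :=
    φ_eq (fun k => by rw [SpecialLinearGroup.transvection_coe]; exact tab_spec 0 1 h01 k)
  rw [show φ (SpecialLinearGroup.transvection h01 (1 : ZMod 2)) = 1 from
    MonoidHom.mem_ker.mp (htop ▸ Subgroup.mem_top _)] at h1
  exact absurd (DFunLike.congr_fun h1 0) (by decide)

theorem φ_even (g : S4) : φ g ∈ alternatingGroup (Fin 8) := by
  haveI : Fact (Nat.Prime 2) := ⟨Nat.prime_two⟩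
  rw [Equiv.Perm.mem_alternatingGroup]
  have hc : g ∈ commutator S4 := by
    rw [CfsgLib.SLn.commutator_eq_top (Or.inl (by simp))]
    exact Subgroup.mem_top _
  have := Abelianization.commutator_subset_ker (Equiv.Perm.sign.comp φ) hc
  rwa [MonoidHom.mem_ker] at this

theorem φ_spec (g : S4) : Aff g (φ g) := by
  obtain ⟨π, hπ⟩ := fst_surjective g
  rwa [φ_eq hπ]

theorem pair_image (g : S4) (a b : Fin 8) :
    (g : M4) * (u a + u b) * (g : M4)ᵀ = u (φ g a) + u (φ g b) := by
  rw [mul_add, add_mul, φ_spec g a, φ_spec g b]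
  calc u (φ g a) + u (φ g 0) + (u (φ g b) + u (φ g 0))
      = u (φ g a) + u (φ g b) + (u (φ g 0) + u (φ g 0)) := by abel
    _ = _ := by rw [add_self', add_zero]

/-- An insoluble subgroup of order 720 is the isometry group of a frame sum. -/
theorem exists_pair (G : Subgroup S4) (hcard : Nat.card G = 720) (hT : TrivCores G) :
    ∃ a b : Fin 8, a ≠ b ∧ ∀ g : S4, (g : M4) * (u a + u b) * (g : M4)ᵀ = u a + u b → g ∈ G := by
  classical
  haveI : Nontrivial G := Finite.one_lt_card_iff_nontrivial.mp (by rw [hcard]; norm_num)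
  have hns := nonsolvable hT
  set f : G →* Equiv.Perm (Fin 8) := φ.comp G.subtype with hfdef
  have hf : Function.Injective f := φ_injective.comp G.subtype_injective
  letI : MulAction G (Fin 8) := MulAction.compHom _ f
  obtain ⟨x₀, hbig⟩ : ∃ x₀ : Fin 8, 5 ≤ Nat.card (MulAction.orbit G x₀) := by
    by_contra hcon
    push Not at hcon
    exact hns (isSolvable_of_small_cover f hf (fun x => MulAction.orbit G x) (fun x => MulAction.mem_orbit_self x)
      (fun x g y hy => MulAction.mem_orbit_of_mem_orbit g hy) (fun x => by have := hcon x; omega))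
  set O := MulAction.orbit G x₀ with hO
  have hinv : ∀ (g : G) (y : Fin 8), y ∈ O ↔ f g y ∈ O := fun g y => by
    refine ⟨fun hy => MulAction.mem_orbit_of_mem_orbit g hy, fun hy => ?_⟩
    have := MulAction.mem_orbit_of_mem_orbit g⁻¹ hy
    rwa [show g⁻¹ • (f g y) = y from inv_smul_smul g y] at this
  have hdvd : Nat.card O ∣ 720 := by
    rw [← hcard, Nat.card_coe_set_eq, ← MulAction.index_stabilizer]
    exact Subgroup.index_dvd_card _
  have hle : Nat.card O ≤ 8 :=
    (Nat.card_le_card_of_injective _ Subtype.val_injective).trans (le_of_eq (Nat.card_fin 8))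
  have hO8 : O.ncard + Oᶜ.ncard = 8 := by
    rw [Set.ncard_add_ncard_compl, Nat.card_eq_fintype_card, Fintype.card_fin]
  rw [Nat.card_coe_set_eq] at hbig hle hdvd
  have h6 : O.ncard = 6 := by
    rcases (show O.ncard = 5 ∨ O.ncard = 6 ∨ O.ncard = 7 ∨ O.ncard = 8 by omega) with hc | hc | hc | hc
    · exfalso
      let F : G →* Equiv.Perm O := MonoidHom.mk' (fun g => (f g).subtypePerm fun y => (hinv g y).symm)
        (fun a b => Equiv.ext fun y => Subtype.ext (show f (a * b) y = f a (f b y) by rw [map_mul]; rfl))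
      have hfix : ∀ g ∈ F.ker, ∀ x ∈ O, f g x = x := fun g hg x hx =>
        congrArg Subtype.val (DFunLike.congr_fun (MonoidHom.mem_ker.mp hg) (⟨x, hx⟩ : O))
      haveI : Group.IsSolvable F.ker := isSolvable_of_small_cover (f.comp F.ker.subtype)
        (hf.comp F.ker.subtype_injective) (fun x => if x ∈ O then {x} else Oᶜ)
        (fun x => by by_cases hx : x ∈ O <;> simp [hx])
        (fun x g y hy => by
          by_cases hx : x ∈ O
          · simp only [hx, if_true, Set.mem_singleton_iff] at hy ⊢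
            subst hy
            exact hfix _ g.2 _ hx
          · simp only [hx, if_false, Set.mem_compl_iff] at hy ⊢
            exact fun hy' => hy ((hinv (g : G) y).mpr hy'))
        (fun x => by
          rw [Nat.card_coe_set_eq]
          by_cases hx : x ∈ O
          · simp [hx]
          · simp only [hx, if_false]; omega)
      have := Nat.card_le_card_of_injective F ((MonoidHom.ker_eq_bot_iff F).mp (hT.eq_bot_of_solvable F.ker))
      rw [hcard, Nat.card_perm, Nat.card_coe_set_eq, hc] at this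
      norm_num [Nat.factorial] at this
    · exact hc
    · exfalso; rw [hc] at hdvd; norm_num at hdvd
    · exfalso
      have huniv : O = Set.univ := (Set.eq_univ_iff_ncard O).mpr (by
        rw [hc, Nat.card_eq_fintype_card, Fintype.card_fin])
      haveI : MulAction.IsPretransitive f.range (Fin 8) := ⟨fun a b => by
        obtain ⟨g, (hg : g • x₀ = a)⟩ := (huniv ▸ Set.mem_univ a : a ∈ O)
        obtain ⟨k, (hk : k • x₀ = b)⟩ := (huniv ▸ Set.mem_univ b : b ∈ O)
        refine ⟨⟨f (k * g⁻¹), ⟨_, rfl⟩⟩, ?_⟩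
        show (k * g⁻¹) • a = b
        rw [← hg, mul_smul, inv_smul_smul, hk]⟩
      rcases eight_cases hT f hf (fun g => φ_even _) with hiso | hiso <;>
        obtain ⟨e⟩ := hiso <;> have h1 := Nat.card_congr e.toEquiv
      · rw [hcard, nat_card_alternatingGroup, Nat.card_eq_fintype_card, Fintype.card_fin] at h1
        norm_num [Nat.factorial] at h1
      · rw [hcard, card_GL3] at h1
        norm_num at h1
  obtain ⟨a, b, hab, hOc⟩ := Set.ncard_eq_two.mp (show Oᶜ.ncard = 2 by omega)
  refine ⟨a, b, hab, ?_⟩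
  let K : Subgroup S4 :=
    { carrier := {g | (g : M4) * (u a + u b) * (g : M4)ᵀ = u a + u b}
      one_mem' := by simp
      mul_mem' := fun {g k} hg hk => by
        simp only [Set.mem_ofPred_eq] at hg hk ⊢
        rw [show ((g * k : S4) : M4) = (g : M4) * (k : M4) from rfl, transpose_mul]
        calc (g : M4) * k * (u a + u b) * ((k : M4)ᵀ * (g : M4)ᵀ)
            = (g : M4) * ((k : M4) * (u a + u b) * (k : M4)ᵀ) * (g : M4)ᵀ := by simp only [mul_assoc]
          _ = _ := by rw [hk, hg]
      inv_mem' := fun {g} hg => by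
        simp only [Set.mem_ofPred_eq] at hg ⊢
        have e1 : ((g⁻¹ : S4) : M4) * (g : M4) = 1 := by
          exact congrArg Subtype.val (inv_mul_cancel g)
        conv_lhs => rw [← hg]
        calc ((g⁻¹ : S4) : M4) * ((g : M4) * (u a + u b) * (g : M4)ᵀ) * ((g⁻¹ : S4) : M4)ᵀ
            = (((g⁻¹ : S4) : M4) * (g : M4)) * (u a + u b) * (((g⁻¹ : S4) : M4) * (g : M4))ᵀ := by
              simp only [transpose_mul, mul_assoc]
          _ = _ := by rw [e1, transpose_one, one_mul, mul_one] }
  have hmemO : ∀ x, x ∉ O ↔ x = a ∨ x = b := fun x => by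
    rw [← Set.mem_compl_iff, hOc]; simp
  have hK : ∀ g ∈ K, ∀ x, x ∉ O ↔ φ g x ∉ O := by
    intro g hg x
    have h1 := pair_inj a b (φ g a) (φ g b) hab (by rw [← pair_image]; exact hg.symm)
    rw [hmemO, hmemO]
    constructor
    · rintro (rfl | rfl) <;> rcases h1 with ⟨e1, e2⟩ | ⟨e1, e2⟩ <;> simp [e1, e2]
    · rintro (e | e) <;> rcases h1 with ⟨e1, e2⟩ | ⟨e1, e2⟩
      · exact Or.inl ((φ g).injective (e.trans e1.symm))
      · exact Or.inr ((φ g).injective (e.trans e2.symm))
      · exact Or.inr ((φ g).injective (e.trans e2.symm))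
      · exact Or.inl ((φ g).injective (e.trans e1.symm))
  let ψ : K →* Equiv.Perm O := MonoidHom.mk'
    (fun g => (φ (g : S4)).subtypePerm fun y => (not_iff_not.mp (hK g g.2 y)).symm)
    (fun g k => Equiv.ext fun y => Subtype.ext
      (show φ ((g : S4) * k) y = φ (g : S4) (φ (k : S4) y) by rw [map_mul]; rfl))
  have hψ : Function.Injective ψ := by
    rw [← MonoidHom.ker_eq_bot_iff, Subgroup.eq_bot_iff_forall]
    intro g hg
    have hfix : ∀ x ∈ O, φ (g : S4) x = x := fun x hx =>
      congrArg Subtype.val (DFunLike.congr_fun (MonoidHom.mem_ker.mp hg) (⟨x, hx⟩ : O))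
    apply Subtype.ext
    apply φ_injective
    rw [Subgroup.coe_one, map_one]
    have hpa : φ (g : S4) a = a := by
      by_contra hne
      have hne' : φ (g : S4) a = b := ((hmemO _).mp ((hK g g.2 a).mp ((hmemO a).mpr (Or.inl rfl)))).resolve_left hne
      have hbb : φ (g : S4) b = a :=
        ((hmemO _).mp ((hK g g.2 b).mp ((hmemO b).mpr (Or.inr rfl)))).resolve_right fun e =>
          hab ((φ (g : S4)).injective (hne'.trans e.symm))
      have hsw : φ (g : S4) = Equiv.swap a b := Equiv.ext fun x => by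
        by_cases hx : x ∈ O
        · rw [hfix x hx, Equiv.swap_apply_of_ne_of_ne (fun e => (hmemO x).mpr (Or.inl e) hx)
            (fun e => (hmemO x).mpr (Or.inr e) hx)]
        · rcases (hmemO x).mp hx with rfl | rfl
          · rw [hne', Equiv.swap_apply_left]
          · rw [hbb, Equiv.swap_apply_right]
      have hev := φ_even (g : S4)
      rw [hsw, Equiv.Perm.mem_alternatingGroup, Equiv.Perm.sign_swap hab] at hev
      exact absurd hev (by decide)
    refine Equiv.ext fun x => ?_
    by_cases hx : x ∈ O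
    · exact hfix x hx
    · rcases (hmemO x).mp hx with rfl | rfl
      · exact hpa
      · exact ((hmemO _).mp ((hK g g.2 x).mp hx)).resolve_left fun e =>
          hab ((φ (g : S4)).injective (hpa.trans e.symm))
  have hcK : Nat.card K ≤ Nat.card G := by
    have := Nat.card_le_card_of_injective ψ hψ
    rwa [Nat.card_perm, Nat.card_coe_set_eq, h6, show Nat.factorial 6 = 720 from rfl, ← hcard] at this
  have hGK : G ≤ K := fun g hg => by
    show (g : M4) * (u a + u b) * (g : M4)ᵀ = u a + u b
    rw [pair_image]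
    have hne : φ g a ≠ φ g b := fun e => hab ((φ g).injective e)
    have hm : ∀ x, x ∉ O → φ g x ∉ O := fun x hx h => hx ((hinv ⟨g, hg⟩ x).mpr h)
    rcases (hmemO _).mp (hm a ((hmemO a).mpr (Or.inl rfl))) with e1 | e1 <;>
      rcases (hmemO _).mp (hm b ((hmemO b).mpr (Or.inr rfl))) with e2 | e2
    · exact absurd (e1.trans e2.symm) hne
    · rw [e1, e2]
    · rw [e1, e2, add_comm]
    · exact absurd (e1.trans e2.symm) hne
  have heq := Subgroup.eq_of_le_of_card_ge hGK hcK
  exact fun g hg => heq.symm ▸ (show g ∈ K from hg)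

end CfsgLib.RankFourTwo
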