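import Cfsg.Agent.RankFourTwo.Table
import Cfsg.Agent.RankTwoTwo.Four

/-! Three commuting transvections in the image force a section of rank five. -/

set_option autoImplicit false

namespace CfsgLib.RankFourTwo

open Matrix CfsgLib.A8GL4
open scoped MatrixGroups commutatorElement

abbrev S4 := Matrix.SpecialLinearGroup (Fin 4) (ZMod 2)

variable {X : Type*} [Group X] [Finite X]

theorem add_self_vec (v : V4) : v + v = 0 := funext fun _ => CharTwo.add_self_eq_zero _

/-- A linear action through the Frattini quotient of the kernel. -/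
structure Lin (A : X →* S4) (π : X → V4) : Prop where
  add : ∀ r ∈ A.ker, ∀ s ∈ A.ker, π (r * s) = π r + π s
  surj : ∀ v, ∃ r ∈ A.ker, π r = v
  conj : ∀ x, ∀ r ∈ A.ker, π (x * r * x⁻¹) = (A x : M4) *ᵥ π r

theorem Lin.one {A : X →* S4} {π : X → V4} (h : Lin A π) : π 1 = 0 := by
  have := h.add 1 A.ker.one_mem 1 A.ker.one_mem
  rw [mul_one, add_self_vec] at this
  exact this

theorem Lin.inv {A : X →* S4} {π : X → V4} (h : Lin A π) {r : X} (hr : r ∈ A.ker) : π r⁻¹ = π r := by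
  have := h.add r hr r⁻¹ (A.ker.inv_mem hr)
  rw [mul_inv_cancel, h.one] at this
  calc π r⁻¹ = π r + π r + π r⁻¹ := by rw [add_self_vec, zero_add]
    _ = π r + (π r + π r⁻¹) := add_assoc _ _ _
    _ = π r := by rw [← this, add_zero]

theorem Lin.sq {A : X →* S4} {π : X → V4} (h : Lin A π) {k t : X} (hk : k ∈ A.ker) (ht : t ^ 2 ∈ A.ker) :
    π ((k * t) ^ 2) = π k + ((A t : M4) *ᵥ π k + π (t ^ 2)) := by
  have e : (k * t) ^ 2 = k * (t * k * t⁻¹ * t ^ 2) := by simp only [pow_two]; group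
  have hm : t * k * t⁻¹ ∈ A.ker := (MonoidHom.normal_ker A).conj_mem k hk t
  rw [e, h.add k hk _ (A.ker.mul_mem hm ht), h.add _ hm _ ht, h.conj t k hk]

/-- With three commuting transvections and their centralizing elements in the image,
`X` has a section of rank five. -/
theorem not_rank_four (h4 : Cfsg.SectionalPRankLE 2 4 X) {A : X →* S4} {π : X → V4} (h : Lin A π)
    (hT : ∀ i, ∃ x, (A x : M4) = tT i) (hG : ∀ i, ∃ x, (A x : M4) = tG i) : False := by
  classical
  choose τ hτ using hT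
  choose γ hγ using hG
  let R := A.ker
  haveI hRn : R.Normal := MonoidHom.normal_ker A
  let D : Subgroup X :=
    { carrier := {x | x ∈ R ∧ InL (π x)}
      one_mem' := ⟨R.one_mem, by rw [h.one]; exact ⟨rfl, rfl⟩⟩
      mul_mem' := fun {x y} hx hy => ⟨R.mul_mem hx.1 hy.1, by rw [h.add x hx.1 y hy.1]; exact hx.2.add hy.2⟩
      inv_mem' := fun {x} hx => ⟨R.inv_mem hx.1, by rw [h.inv hx.1]; exact hx.2⟩ }
  have hmemD : ∀ x, x ∈ D ↔ x ∈ R ∧ InL (π x) := fun _ => Iff.rfl
  have hDR : D ≤ R := fun x hx => hx.1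
  have hτ2 : ∀ i, τ i ^ 2 ∈ R := fun i => by
    rw [MonoidHom.mem_ker, map_pow]
    apply Subtype.ext
    rw [pow_two, Matrix.SpecialLinearGroup.coe_mul, hτ, (isometries i).2.2.1]
    rfl
  have hAR : ∀ r ∈ R, (A r : M4) = 1 := fun r hr => by rw [MonoidHom.mem_ker.mp hr]; rfl
  -- squares
  have hs : ∀ i, InL (π (τ i ^ 2)) := fun i => by
    refine (moves i _).2.2.1 ?_ ⟨π (⁅γ i, τ i⁆), ?_⟩
    · rw [← hτ, ← h.conj _ _ (hτ2 i)]
      congr 1
      simp only [pow_two]; group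
    · have hk : ⁅γ i, τ i⁆ ∈ R := by
        rw [MonoidHom.mem_ker, map_commutatorElement, commutatorElement_eq_one_iff_mul_comm]
        apply Subtype.ext
        rw [Matrix.SpecialLinearGroup.coe_mul, Matrix.SpecialLinearGroup.coe_mul, hτ, hγ, (isometries i).2.2.2.1]
      have h1 := h.sq hk (hτ2 i)
      rw [show (⁅γ i, τ i⁆ * τ i) ^ 2 = γ i * τ i ^ 2 * (γ i)⁻¹ by
          simp only [commutatorElement_def, pow_two]; group, h.conj _ _ (hτ2 i), hγ, hτ] at h1
      rw [h1]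
      calc π ⁅γ i, τ i⁆ + (tT i *ᵥ π ⁅γ i, τ i⁆ + π (τ i ^ 2)) + π (τ i ^ 2)
          = tT i *ᵥ π ⁅γ i, τ i⁆ + π ⁅γ i, τ i⁆ + (π (τ i ^ 2) + π (τ i ^ 2)) := by abel
        _ = _ := by rw [add_self_vec, add_zero]
  -- commutators
  have hfix : ∀ i j, ⁅τ i, τ j⁆ ∈ R ∧ tT j *ᵥ π ⁅τ i, τ j⁆ = π ⁅τ i, τ j⁆ := fun i j => by
    have hk : ⁅τ i, τ j⁆ ∈ R := by
      rw [MonoidHom.mem_ker, map_commutatorElement, commutatorElement_eq_one_iff_mul_comm]
      apply Subtype.ext
      rw [Matrix.SpecialLinearGroup.coe_mul, Matrix.SpecialLinearGroup.coe_mul, hτ, hτ, (isometries i).2.2.2.2 j]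
    refine ⟨hk, ?_⟩
    have h1 := h.sq hk (hτ2 j)
    rw [show (⁅τ i, τ j⁆ * τ j) ^ 2 = τ i * τ j ^ 2 * (τ i)⁻¹ by
        simp only [commutatorElement_def, pow_two]; group, h.conj _ _ (hτ2 j), hτ, hτ,
      (moves i _).1 i (hs j), ← add_assoc, right_eq_add] at h1
    calc tT j *ᵥ π ⁅τ i, τ j⁆ = π ⁅τ i, τ j⁆ + π ⁅τ i, τ j⁆ + tT j *ᵥ π ⁅τ i, τ j⁆ := by
          rw [add_self_vec, zero_add]
      _ = π ⁅τ i, τ j⁆ + (π ⁅τ i, τ j⁆ + tT j *ᵥ π ⁅τ i, τ j⁆) := add_assoc _ _ _
      _ = π ⁅τ i, τ j⁆ := by rw [h1, add_zero]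
  have hcomm : ∀ i j, ⁅τ i, τ j⁆ ∈ D := fun i j => by
    by_cases hij : i = j
    · subst hij
      rw [commutatorElement_self]
      exact D.one_mem
    · obtain ⟨hk, h2⟩ := hfix i j
      refine ⟨hk, (moves i _).2.2.2 j hij ?_ h2⟩
      have h3 := (hfix j i).2
      rw [← commutatorElement_inv, h.inv hk] at h3
      exact h3
  let gens : Set X := (R : Set X) ∪ Set.range τ
  let H : Subgroup X := Subgroup.closure gens
  have hRH : R ≤ H := fun x hx => Subgroup.subset_closure (Or.inl hx)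
  have hN : H ≤ Subgroup.normalizer (D : Set X) := by
    refine (Subgroup.closure_le _).mpr ?_
    rintro x (hx | ⟨i, rfl⟩)
    · rw [SetLike.mem_coe, Subgroup.mem_normalizer_iff]
      intro d
      constructor
      · rintro ⟨hd, hd'⟩
        refine ⟨R.mul_mem (R.mul_mem hx hd) (R.inv_mem hx), ?_⟩
        rw [h.conj x d hd, hAR x hx, Matrix.one_mulVec]; exact hd'
      · rintro ⟨hd, hd'⟩
        have hd0 : d ∈ R := (R.mul_mem_cancel_left hx).mp ((R.mul_mem_cancel_right (R.inv_mem hx)).mp hd)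
        refine ⟨hd0, ?_⟩
        rwa [h.conj x d hd0, hAR x hx, Matrix.one_mulVec] at hd'
    · rw [SetLike.mem_coe, Subgroup.mem_normalizer_iff]
      intro d
      constructor
      · rintro ⟨hd, hd'⟩
        refine ⟨hRn.conj_mem d hd _, ?_⟩
        rw [h.conj _ d hd, hτ, (moves i _).1 i hd']; exact hd'
      · rintro ⟨hd, hd'⟩
        have hd0 : d ∈ R := by
          have := hRn.conj_mem _ hd (τ i)⁻¹
          rwa [show (τ i)⁻¹ * (τ i * d * (τ i)⁻¹) * (τ i)⁻¹⁻¹ = d by group] at this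
        refine ⟨hd0, ?_⟩
        rw [h.conj _ d hd0, hτ] at hd'
        have h2 := (moves i _).1 i hd'
        rw [Matrix.mulVec_mulVec, (isometries i).2.2.1, Matrix.one_mulVec] at h2
        rwa [h2]
  have hDH : D ≤ H := hDR.trans hRH
  -- the quotient
  have hg1 : ∀ x ∈ gens, x ^ 2 ∈ D := by
    rintro x (hx | ⟨i, rfl⟩)
    · refine ⟨R.pow_mem hx 2, ?_⟩
      rw [pow_two, h.add x hx x hx, add_self_vec]
      exact ⟨rfl, rfl⟩
    · exact ⟨hτ2 i, hs i⟩
  have hg2 : ∀ x ∈ gens, ∀ y ∈ gens, ⁅x, y⁆ ∈ D := by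
    have key : ∀ (i : Fin 3), ∀ r ∈ R, ⁅τ i, r⁆ ∈ D := fun i r hr => by
      refine ⟨R.mul_mem (hRn.conj_mem r hr _) (R.inv_mem hr), ?_⟩
      rw [commutatorElement_def, h.add _ (hRn.conj_mem r hr _) _ (R.inv_mem hr), h.conj _ r hr, h.inv hr, hτ]
      exact (moves i _).2.1
    rintro x (hx | ⟨i, rfl⟩) y (hy | ⟨j, rfl⟩)
    · refine ⟨R.mul_mem (R.mul_mem (R.mul_mem hx hy) (R.inv_mem hx)) (R.inv_mem hy), ?_⟩
      rw [commutatorElement_def, h.add _ (R.mul_mem (R.mul_mem hx hy) (R.inv_mem hx)) _ (R.inv_mem hy),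
        h.conj x y hy, hAR x hx, Matrix.one_mulVec, h.inv hy, add_self_vec]
      exact ⟨rfl, rfl⟩
    · rw [← commutatorElement_inv]
      exact D.inv_mem (key j x hx)
    · exact key i y hy
    · exact hcomm i j
  let N := Subgroup.normalizer (D : Set X)
  haveI : (D.subgroupOf N).Normal := Subgroup.normal_in_normalizer
  let q := QuotientGroup.mk' (D.subgroupOf N)
  have hall : ∀ x (hx : x ∈ H), (∀ y (hy : y ∈ gens), Commute (q ⟨x, hN hx⟩) (q ⟨y, hN (Subgroup.subset_closure hy)⟩)) := by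
    intro x hx
    induction hx using Subgroup.closure_induction with
    | mem z hz =>
      intro y hy
      rw [commute_iff_eq, ← commutatorElement_eq_one_iff_mul_comm, ← map_commutatorElement]
      exact (QuotientGroup.eq_one_iff _).mpr (hg2 z hz y hy)
    | one => intro y _; rw [show (⟨1, _⟩ : N) = 1 from rfl, map_one]; exact Commute.one_left _
    | mul a b ha hb iha ihb =>
      intro y hy
      rw [show (⟨a * b, _⟩ : N) = ⟨a, hN ha⟩ * ⟨b, hN hb⟩ from rfl, map_mul]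
      exact (iha y hy).mul_left (ihb y hy)
    | inv a ha iha =>
      intro y hy
      rw [show (⟨a⁻¹, _⟩ : N) = (⟨a, hN ha⟩ : N)⁻¹ from rfl, map_inv]
      exact (iha y hy).inv_left
  have hall2 : ∀ y (hy : y ∈ H), ∀ x (hx : x ∈ H), Commute (q ⟨x, hN hx⟩) (q ⟨y, hN hy⟩) := by
    intro y hy
    induction hy using Subgroup.closure_induction with
    | mem z hz => intro x hx; exact hall x hx z hz
    | one => intro x _; rw [show (⟨1, _⟩ : N) = 1 from rfl, map_one]; exact Commute.one_right _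
    | mul a b ha hb iha ihb =>
      intro x hx
      rw [show (⟨a * b, _⟩ : N) = ⟨a, hN ha⟩ * ⟨b, hN hb⟩ from rfl, map_mul]
      exact (iha x hx).mul_right (ihb x hx)
    | inv a ha iha =>
      intro x hx
      rw [show (⟨a⁻¹, _⟩ : N) = (⟨a, hN ha⟩ : N)⁻¹ from rfl, map_inv]
      exact (iha x hx).inv_right
  have hC : ∀ x ∈ H, ∀ y ∈ H, ⁅x, y⁆ ∈ D := fun x hx y hy => by
    have := commutatorElement_eq_one_iff_mul_comm.mpr (hall2 y hy x hx)
    rw [← map_commutatorElement] at this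
    exact ((QuotientGroup.eq_one_iff _).mp this : _)
  have hS : ∀ x ∈ H, x ^ 2 ∈ D := fun x hx => by
    have hsq : ∀ x (hx : x ∈ H), q ⟨x, hN hx⟩ ^ 2 = 1 := by
      intro x hx
      induction hx using Subgroup.closure_induction with
      | mem z hz => rw [← map_pow]; exact (QuotientGroup.eq_one_iff _).mpr (hg1 z hz)
      | one => rw [show (⟨1, _⟩ : N) = 1 from rfl, map_one, one_pow]
      | mul a b ha hb iha ihb =>
        rw [show (⟨a * b, _⟩ : N) = ⟨a, hN ha⟩ * ⟨b, hN hb⟩ from rfl, map_mul,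
          Commute.mul_pow (hall2 b hb a ha), iha, ihb, one_mul]
      | inv a ha iha =>
        rw [show (⟨a⁻¹, _⟩ : N) = (⟨a, hN ha⟩ : N)⁻¹ from rfl, map_inv, inv_pow, iha, inv_one]
    have := hsq x hx
    rw [← map_pow] at this
    exact ((QuotientGroup.eq_one_iff _).mp this : _)
  have hle := CfsgLib.RankTwoTwo.Four.section_bound h4 H D hDH hC hS
  -- the index of `D` in `R`
  let c : R →* Multiplicative (ZMod 2 × ZMod 2) :=
    MonoidHom.mk' (fun r => Multiplicative.ofAdd (π r 2, π r 3)) (fun r s => by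
      rw [Subgroup.coe_mul, h.add r r.2 s s.2]; rfl)
  have hc : Function.Surjective c := fun v => by
    obtain ⟨r, hr, e⟩ := h.surj ![0, 0, (Multiplicative.toAdd v).1, (Multiplicative.toAdd v).2]
    refine ⟨⟨r, hr⟩, ?_⟩
    show Multiplicative.ofAdd (π r 2, π r 3) = v
    rw [e]; rfl
  have hck : c.ker = D.subgroupOf R := by
    ext r
    rw [MonoidHom.mem_ker, Subgroup.mem_subgroupOf, hmemD]
    constructor
    · intro e
      have e1 := congrArg Multiplicative.toAdd e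
      exact ⟨r.2, congrArg Prod.fst e1, congrArg Prod.snd e1⟩
    · rintro ⟨_, e2, e3⟩
      show Multiplicative.ofAdd (π r 2, π r 3) = 1
      rw [e2, e3]; rfl
  have hRD : Nat.card R = Nat.card D * 4 := by
    have := c.ker.card_mul_index
    rw [Subgroup.index_ker, MonoidHom.range_eq_top.mpr hc, Subgroup.card_top, hck,
      Nat.card_congr (Subgroup.subgroupOfEquivOfLe hDR).toEquiv] at this
    rw [← this, Nat.card_congr Multiplicative.toAdd, Nat.card_prod, Nat.card_zmod]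
  -- the image of `H`
  let a := A.comp H.subtype
  have ha : 8 ≤ Nat.card a.range := by
    let v : Fin 2 × Fin 2 × Fin 2 → H := fun b =>
      ⟨τ 0 ^ b.1.val * τ 1 ^ b.2.1.val * τ 2 ^ b.2.2.val,
        H.mul_mem (H.mul_mem (H.pow_mem (Subgroup.subset_closure (Or.inr ⟨0, rfl⟩)) _)
          (H.pow_mem (Subgroup.subset_closure (Or.inr ⟨1, rfl⟩)) _))
          (H.pow_mem (Subgroup.subset_closure (Or.inr ⟨2, rfl⟩)) _)⟩
    have hv : ∀ b, (a (v b) : M4) = tProd b := fun b => by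
      show (A (τ 0 ^ b.1.val * τ 1 ^ b.2.1.val * τ 2 ^ b.2.2.val) : M4) = _
      simp only [map_mul, map_pow, Matrix.SpecialLinearGroup.coe_mul, Matrix.SpecialLinearGroup.coe_pow, hτ]
      rfl
    have := Nat.card_le_card_of_injective (fun b => (⟨a (v b), v b, rfl⟩ : a.range)) (fun b b' e =>
      tProd_injective b b' (by rw [← hv, ← hv, show a (v b) = a (v b') from congrArg Subtype.val e]))
    simpa using this
  have hH : Nat.card H = Nat.card R * Nat.card a.range := by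
    have := a.ker.card_mul_index
    rw [Subgroup.index_ker, show a.ker = R.subgroupOf H from rfl,
      Nat.card_congr (Subgroup.subgroupOfEquivOfLe hRH).toEquiv] at this
    exact this.symm
  have hD0 : 0 < Nat.card D := Nat.card_pos
  have h32 := Nat.mul_le_mul (le_refl (Nat.card D * 4)) ha
  rw [hH, hRD] at hle
  omega

/-- If the image holds all isometries of some frame sum, `X` has a section of rank five. -/
theorem not_rank_four_of_isometries (h4 : Cfsg.SectionalPRankLE 2 4 X) {A : X →* S4} {π : X → V4} (h : Lin A π)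
    {a b : Fin 8} (hab : a ≠ b)
    (hiso : ∀ g : S4, (g : M4) * (u a + u b) * (g : M4)ᵀ = u a + u b → g ∈ A.range) : False := by
  obtain ⟨hPQ, hQP, hPU⟩ := P_spec a b
  have hdet1 : ∀ M N : M4, M * N = 1 → M.det = 1 := fun M N e => by
    rcases (show ∀ c : ZMod 2, c = 0 ∨ c = 1 by decide) M.det with e' | e'
    · have := congrArg Matrix.det e
      rw [det_mul, e', zero_mul, det_one] at this
      exact absurd this (by decide)
    · exact e'
  have hdet2 : ∀ M : M4, M * U₀ * Mᵀ = U₀ → M.det = 1 := fun M e =>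
    hdet1 M (U₀ * Mᵀ * U₀) (by rw [← mul_assoc, ← mul_assoc, e]; decide +kernel)
  obtain ⟨p, hp⟩ : ∃ p : S4, (p : M4) = P a b := ⟨⟨P a b, hdet1 _ _ hPQ⟩, rfl⟩
  have hpinv : ((p⁻¹ : S4) : M4) = Pinv a b := by
    calc ((p⁻¹ : S4) : M4) = ((p⁻¹ : S4) : M4) * ((p : M4) * Pinv a b) := by rw [hp, hPQ, mul_one]
      _ = ((p⁻¹ * p : S4) : M4) * Pinv a b := by rw [Matrix.SpecialLinearGroup.coe_mul, ← mul_assoc]
      _ = _ := by rw [inv_mul_cancel, Matrix.SpecialLinearGroup.coe_one, one_mul]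
  obtain ⟨A', hA'⟩ : ∃ A' : X →* S4, ∀ x, A' x = p⁻¹ * A x * p :=
    ⟨MonoidHom.mk' (fun x => p⁻¹ * A x * p) (fun x y => by rw [map_mul]; group), fun _ => rfl⟩
  have hker : ∀ r, r ∈ A'.ker → r ∈ A.ker := fun r hr => by
    rw [MonoidHom.mem_ker] at hr ⊢
    rw [hA'] at hr
    calc A r = p * (p⁻¹ * A r * p) * p⁻¹ := by group
      _ = 1 := by rw [hr, mul_one, mul_inv_cancel]
  have hker' : ∀ r, r ∈ A.ker → r ∈ A'.ker := fun r hr => by
    rw [MonoidHom.mem_ker] at hr ⊢
    rw [hA', hr, mul_one, inv_mul_cancel]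
  have hlift : ∀ M : M4, M * U₀ * Mᵀ = U₀ → ∃ x, (A' x : M4) = M := fun M hM => by
    obtain ⟨m, hm⟩ : ∃ m : S4, (m : M4) = M := ⟨⟨M, hdet2 M hM⟩, rfl⟩
    obtain ⟨x, hx⟩ := hiso (p * m * p⁻¹) (by
      rw [Matrix.SpecialLinearGroup.coe_mul, Matrix.SpecialLinearGroup.coe_mul, hpinv, hp, hm, ← hPU hab]
      calc P a b * M * Pinv a b * (P a b * U₀ * (P a b)ᵀ) * (P a b * M * Pinv a b)ᵀ
          = P a b * M * (Pinv a b * P a b) * U₀ * (((P a b)ᵀ * (Pinv a b)ᵀ) * (Mᵀ * (P a b)ᵀ)) := by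
            simp only [transpose_mul, mul_assoc]
        _ = P a b * (M * U₀ * Mᵀ) * (P a b)ᵀ := by
            rw [hQP, ← transpose_mul, hQP, transpose_one, mul_one, one_mul]; simp only [mul_assoc]
        _ = _ := by rw [hM])
    refine ⟨x, ?_⟩
    rw [hA', hx, show p⁻¹ * (p * m * p⁻¹) * p = m by group, hm]
  refine not_rank_four h4 (A := A') (π := fun x => Pinv a b *ᵥ π x) ?_ (fun i => hlift _ (isometries i).1)
    (fun i => hlift _ (isometries i).2.1)
  refine ⟨fun r hr s hs => ?_, fun v => ?_, fun x r hr => ?_⟩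
  · rw [h.add r (hker r hr) s (hker s hs), Matrix.mulVec_add]
  · obtain ⟨r, hr, e⟩ := h.surj (P a b *ᵥ v)
    exact ⟨r, hker' r hr, by rw [e, Matrix.mulVec_mulVec, hQP, Matrix.one_mulVec]⟩
  · rw [h.conj x r (hker r hr), hA', Matrix.SpecialLinearGroup.coe_mul, Matrix.SpecialLinearGroup.coe_mul, hpinv,
      hp, Matrix.mulVec_mulVec, Matrix.mulVec_mulVec, mul_assoc, mul_assoc, hPQ, mul_one]

end CfsgLib.RankFourTwo
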